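import Cfsg.Agent.Lib.Char.SelfCentPrime
import Cfsg.Agent.Lib.Char.SelfCentGroup
import Cfsg.Agent.Lib.Char.Integral
import Cfsg.Agent.Lib.CharClifford.Basic
import Cfsg.Agent.Lib.Ito
import Mathlib.Analysis.SpecialFunctions.Complex.Circle

/-!
# Characters of degree `p - 1` for a self-centralising element of prime order
-/

set_option autoImplicit false
set_option linter.unusedSectionVars false

open scoped ComplexConjugate

namespace Cfsg.Agent.Lib.CharSelfCentDet

open Cfsg Cfsg.Agent.Lib Cfsg.Agent.Lib.Char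

universe u

variable {G : Type u} [Group G] [Fintype G] {p : ℕ} [Fact p.Prime]
  (P : Subgroup G) [Fintype P]

open scoped Classical in
/-- The singular part of the norm. -/
theorem sum_normSq_singular (hP : Nat.card P = p)
    (hC : Subgroup.centralizer (P : Set G) ≤ P) {χ : G → ℂ} (hχ : IsIrrCharacter G χ) :
    (Nat.card G : ℝ) * ∑ y ∈ Finset.univ.filter (fun y : P => y ≠ 1), Complex.normSq (χ y) ≤
      (Nat.card (Subgroup.normalizer (P : Set G)) : ℝ) *
        ((Nat.card G : ℝ) - Complex.normSq (χ 1)) := by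
  classical
  have hp : p.Prime := Fact.out
  set N := Subgroup.normalizer (P : Set G) with hN
  haveI := Fintype.ofFinite N
  have hcl := isClassFunction_of_isIrr hχ
  have hnorm : ∑ g : G, Complex.normSq (χ g) = (Nat.card G : ℝ) := by
    have h := classInner_irr_self hχ
    rw [classInner, inv_mul_eq_iff_eq_mul₀ (card_ne_zero_complex G), mul_one] at h
    simp only [Complex.mul_conj] at h
    exact_mod_cast h
  set Y := Finset.univ.filter (fun y : P => y ≠ 1) with hY
  set D := (Finset.univ : Finset G) ×ˢ Y with hD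
  set f : G × P → G := fun gy => gy.1 * (gy.2 : G) * gy.1⁻¹ with hf
  set E := D.image f with hE
  have hfib : ∀ z ∈ E, (D.filter fun gy => f gy = z).card = Nat.card N := by
    intro z hz
    obtain ⟨⟨g₀, y₀⟩, h0, rfl⟩ := Finset.mem_image.1 hz
    have hy₀ : y₀ ≠ 1 := (Finset.mem_filter.1 (Finset.mem_product.1 h0).2).2
    have hmem : ∀ n : N, (n : G)⁻¹ * (y₀ : G) * n ∈ P := fun n =>
      (Subgroup.mem_normalizer_iff''.1 n.2 (y₀ : G)).1 y₀.2
    rw [Nat.card_eq_fintype_card, ← Finset.card_univ]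
    symm
    refine Finset.card_bij (fun n _ => (g₀ * (n : G), ⟨_, hmem n⟩)) ?_ ?_ ?_
    · intro n _
      refine Finset.mem_filter.2 ⟨Finset.mem_product.2 ⟨Finset.mem_univ _,
        Finset.mem_filter.2 ⟨Finset.mem_univ _, fun h => hy₀ (Subtype.ext ?_)⟩⟩, by simp [hf, mul_assoc]⟩
      have h' : (n : G)⁻¹ * (y₀ : G) * n = 1 := congrArg Subtype.val h
      calc (y₀ : G) = n * ((n : G)⁻¹ * y₀ * n) * (n : G)⁻¹ := by group
        _ = 1 := by rw [h']; group
    · intro a _ b _ h
      exact Subtype.ext (mul_left_cancel (congrArg Prod.fst h))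
    · rintro ⟨g, y⟩ hgy
      obtain ⟨hm, he⟩ := Finset.mem_filter.1 hgy
      have hy : y ≠ 1 := (Finset.mem_filter.1 (Finset.mem_product.1 hm).2).2
      simp only [hf] at he
      have he' : g₀⁻¹ * g * (y : G) * (g₀⁻¹ * g)⁻¹ = y₀ := by
        calc g₀⁻¹ * g * (y : G) * (g₀⁻¹ * g)⁻¹ = g₀⁻¹ * (g * y * g⁻¹) * g₀ := by group
          _ = y₀ := by rw [he]; group
      have hn : g₀⁻¹ * g ∈ N := mem_normalizer_of_conj_mem hp hP y.2
        (fun h => hy (Subtype.ext h)) (by rw [he']; exact y₀.2)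
      refine ⟨⟨_, hn⟩, Finset.mem_univ _, Prod.ext (mul_inv_cancel_left _ _) (Subtype.ext ?_)⟩
      show (g₀⁻¹ * g)⁻¹ * (y₀ : G) * (g₀⁻¹ * g) = y
      rw [← he']; group
  have h1 : (Nat.card G : ℝ) * ∑ y ∈ Y, Complex.normSq (χ y) =
      ∑ gy ∈ D, Complex.normSq (χ (f gy)) := by
    rw [hD, Finset.sum_product, Finset.sum_congr rfl fun g _ => Finset.sum_congr rfl fun y _ => by
      rw [show χ (f (g, y)) = χ y from hcl _ _], Finset.sum_const, Finset.card_univ, nsmul_eq_mul,
      Nat.card_eq_fintype_card]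
  rw [h1, ← Finset.sum_fiberwise_of_maps_to (g := f) (t := E)
    fun gy h => Finset.mem_image_of_mem f h]
  rw [Finset.sum_congr rfl fun z hz => (show
    ∑ gy ∈ D.filter (fun gy => f gy = z), Complex.normSq (χ (f gy)) =
      (Nat.card N : ℝ) * Complex.normSq (χ z) by
    rw [Finset.sum_congr rfl fun gy hgy => by rw [(Finset.mem_filter.1 hgy).2],
      Finset.sum_const, hfib z hz, nsmul_eq_mul]), ← Finset.mul_sum]
  refine mul_le_mul_of_nonneg_left ?_ (Nat.cast_nonneg _)
  have hsub : E ⊆ Finset.univ.erase 1 := by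
    intro z hz
    obtain ⟨⟨g, y⟩, h0, rfl⟩ := Finset.mem_image.1 hz
    have hy : y ≠ 1 := (Finset.mem_filter.1 (Finset.mem_product.1 h0).2).2
    refine Finset.mem_erase.2 ⟨fun h => hy (Subtype.ext ?_), Finset.mem_univ _⟩
    simp only [hf] at h
    calc (y : G) = g⁻¹ * (g * y * g⁻¹) * g := by group
      _ = 1 := by rw [h]; group
  refine (Finset.sum_le_sum_of_subset_of_nonneg hsub fun z _ _ => Complex.normSq_nonneg _).trans ?_
  rw [← hnorm, ← Finset.add_sum_erase _ _ (Finset.mem_univ (1 : G))]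
  simp

open scoped Classical in
/-- The sum over the nontrivial elements is divisible by `e` among algebraic integers. -/
theorem isIntegral_sum_div (hP : Nat.card P = p) (hC : Subgroup.centralizer (P : Set G) ≤ P)
    {e : ℕ} (he : Nat.card (Subgroup.normalizer (P : Set G)) = p * e) {χ : G → ℂ}
    (hχ : IsCharacter G χ) :
    ∃ s : ℂ, IsIntegral ℤ s ∧
      ∑ y ∈ Finset.univ.filter (fun y : P => y ≠ 1), χ y = (e : ℂ) * s := by
  classical
  have hp : p.Prime := Fact.out
  set N := Subgroup.normalizer (P : Set G) with hN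
  haveI := Fintype.ofFinite N
  set Y := Finset.univ.filter (fun y : P => y ≠ 1) with hY
  set f : P → ConjClasses G := fun y => ConjClasses.mk (y : G) with hf
  have hcyc : IsCyclic P := isCyclic_of_prime_card hP
  have hab : ∀ a b : P, a * b = b * a := (IsCyclic.commGroup (α := P)).mul_comm
  have hfib : ∀ z ∈ Y.image f, (Y.filter fun y => f y = z).card = e := by
    intro z hz
    obtain ⟨y₀, h0, rfl⟩ := Finset.mem_image.1 hz
    have hy₀ : y₀ ≠ 1 := (Finset.mem_filter.1 h0).2
    have hne0 : (y₀ : G) ≠ 1 := fun h => hy₀ (Subtype.ext h)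
    set a : N → P := fun n => ⟨(n : G) * y₀ * (n : G)⁻¹,
      (Subgroup.mem_normalizer_iff.1 n.2 _).1 y₀.2⟩ with ha
    have hmaps : ∀ n : N, a n ∈ Y.filter fun y => f y = f y₀ := fun n => by
      refine Finset.mem_filter.2 ⟨Finset.mem_filter.2 ⟨Finset.mem_univ _, fun h => hne0 ?_⟩, ?_⟩
      · have h' : (n : G) * y₀ * (n : G)⁻¹ = 1 := congrArg Subtype.val h
        calc (y₀ : G) = (n : G)⁻¹ * ((n : G) * y₀ * (n : G)⁻¹) * n := by group
          _ = 1 := by rw [h']; group
      · exact ConjClasses.mk_eq_mk_iff_isConj.2 (isConj_iff.2 ⟨(n : G), rfl⟩).symm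
    have h := Finset.card_eq_sum_card_fiberwise (s := (Finset.univ : Finset N)) (f := a)
      (t := Y.filter fun y => f y = f y₀) fun n _ => hmaps n
    have hsz : ∀ y ∈ Y.filter (fun y => f y = f y₀), (Finset.univ.filter fun n => a n = y).card = p := by
      intro y hy
      obtain ⟨hyY, hye⟩ := Finset.mem_filter.1 hy
      obtain ⟨c, hc⟩ := isConj_iff.1 (ConjClasses.mk_eq_mk_iff_isConj.1 hye).symm
      have hcN : c ∈ N := mem_normalizer_of_conj_mem hp hP y₀.2 hne0 (by rw [hc]; exact y.2)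
      rw [← hP, Nat.card_eq_fintype_card, ← Finset.card_univ]
      symm
      refine Finset.card_bij (fun q _ => ⟨c * (q : G), mul_mem hcN (Subgroup.le_normalizer q.2)⟩)
        ?_ ?_ ?_
      · intro q _
        refine Finset.mem_filter.2 ⟨Finset.mem_univ _, Subtype.ext ?_⟩
        show c * (q : G) * y₀ * (c * (q : G))⁻¹ = y
        have hq : (q : G) * y₀ = y₀ * q := congrArg Subtype.val (hab q y₀)
        rw [mul_assoc c, hq, ← hc]; group
      · intro q _ q' _ h
        exact Subtype.ext (mul_left_cancel (congrArg Subtype.val h))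
      · intro n hn
        have hn' : (n : G) * y₀ * (n : G)⁻¹ = y :=
          congrArg Subtype.val (Finset.mem_filter.1 hn).2
        have hcomm : Commute (c⁻¹ * (n : G)) (y₀ : G) := by
          refine mul_inv_eq_iff_eq_mul.1 ?_
          calc c⁻¹ * (n : G) * y₀ * (c⁻¹ * (n : G))⁻¹
              = c⁻¹ * ((n : G) * y₀ * (n : G)⁻¹) * c := by group
            _ = c⁻¹ * (c * y₀ * c⁻¹) * c := by rw [hn', hc]
            _ = y₀ := by group
        have hmem : c⁻¹ * (n : G) ∈ P := by
          refine hC (Subgroup.mem_centralizer_iff.2 fun z hz => ?_)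
          obtain ⟨i, hi⟩ : (⟨z, hz⟩ : P) ∈ Subgroup.zpowers y₀ :=
            mem_zpowers_of_prime_card (p := p) hP hy₀
          have : z = (y₀ : G) ^ i := by
            rw [show z = ((⟨z, hz⟩ : P) : G) from rfl, ← hi]; push_cast; rfl
          rw [this]
          exact ((hcomm.zpow_right i).eq).symm
        exact ⟨⟨_, hmem⟩, Finset.mem_univ _, Subtype.ext (mul_inv_cancel_left _ _)⟩
    rw [Finset.sum_eq_card_nsmul hsz, smul_eq_mul, Finset.card_univ, ← Nat.card_eq_fintype_card, he,
      mul_comm] at h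
    exact (Nat.eq_of_mul_eq_mul_right hp.pos h).symm
  have hcl := isClassFunction_of_isCharacter hχ
  refine ⟨∑ z ∈ Y.image f, χ z.out, IsIntegral.sum _ fun z _ => char_isIntegral hχ _, ?_⟩
  rw [← Finset.sum_fiberwise_of_maps_to (g := f) (t := Y.image f)
    fun y h => Finset.mem_image_of_mem f h, Finset.mul_sum]
  refine Finset.sum_congr rfl fun z hz => ?_
  rw [Finset.sum_eq_card_nsmul (b := χ z.out), hfib z hz, nsmul_eq_mul]
  intro y hy
  have h : ConjClasses.mk (y : G) = ConjClasses.mk z.out := by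
    rw [show ConjClasses.mk z.out = z from Quotient.out_eq z]
    exact (Finset.mem_filter.1 hy).2
  obtain ⟨c, hc⟩ := isConj_iff.1 (ConjClasses.mk_eq_mk_iff_isConj.1 h)
  rw [← hc, hcl]

/-- A character of degree `p - 1` has no trivial constituent on `P`, for `e ≥ 2`. -/
theorem sum_eq_zero (hP : Nat.card P = p) (hC : Subgroup.centralizer (P : Set G) ≤ P)
    {e : ℕ} (he : Nat.card (Subgroup.normalizer (P : Set G)) = p * e) (he2 : 2 ≤ e)
    (hedvd : e ∣ p - 1) {χ : G → ℂ} (hχ : IsIrrCharacter G χ) (hd : χ 1 = ((p - 1 : ℕ) : ℂ)) :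
    ∑ y : P, χ y = 0 := by
  classical
  have hp : p.Prime := Fact.out
  haveI hcyc : IsCyclic P := isCyclic_of_prime_card hP
  have hab : ∀ a b : P, a * b = b * a := (IsCyclic.commGroup (α := P)).mul_comm
  have hRc : IsCharacter P (fun y : P => χ y) := isCharacter_restrict (isCharacter_of_isIrr hχ) P
  choose m hm using fun ξ : IrrCharacter P => classInner_natCast hRc (isCharacter_of_isIrr ξ.2)
  let one : IrrCharacter P := ⟨_, isIrrCharacter_one⟩
  have hp0 : (p : ℂ) ≠ 0 := Nat.cast_ne_zero.2 hp.pos.ne'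
  have hsum : ∑ y : P, χ y = (p : ℂ) * m one := by
    rw [← hm, classInner, hP, ← mul_assoc, mul_inv_cancel₀ hp0, one_mul]
    simp [one]
  have h1 : ∀ ξ : IrrCharacter P, (ξ : P → ℂ) 1 = 1 := fun ξ => Ito.apply_one_of_abelian hab ξ.2
  have hdeg : ∑ ξ, m ξ = p - 1 := by
    have h := congrFun (eq_sum_classInner_smul (isClassFunction_of_isCharacter hRc)) 1
    simp only [OneMemClass.coe_one, hd, Finset.sum_apply, Pi.smul_apply, smul_eq_mul, hm,
      h1, mul_one] at h
    exact_mod_cast h.symm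
  have hsq : ∑ y : P, Complex.normSq (χ y) = (p : ℝ) * ∑ ξ, ((m ξ : ℝ) * m ξ) := by
    have h := classInner_eq_sum (φ := fun y : P => χ y) (isClassFunction_of_isCharacter hRc)
    simp only [hm, Complex.conj_natCast] at h
    rw [classInner, hP, inv_mul_eq_iff_eq_mul₀ hp0] at h
    simp only [Complex.mul_conj] at h
    exact_mod_cast h
  -- divisibility
  have hdvd : e ∣ m one := by
    obtain ⟨s, hs, hse⟩ := isIntegral_sum_div P hP hC he (isCharacter_of_isIrr hχ)
    have he0 : (e : ℂ) ≠ 0 := Nat.cast_ne_zero.2 (by omega)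
    have hsplit : ∑ y : P, χ y = χ 1 + (e : ℂ) * s := by
      rw [← hse, Finset.filter_ne', ← Finset.add_sum_erase _ _ (Finset.mem_univ (1 : P)),
        OneMemClass.coe_one]
    rw [hsum, hd] at hsplit
    obtain ⟨q, hq⟩ := hedvd
    have hi : IsIntegral ℤ (((p * m one : ℕ) : ℂ) / (e : ℂ)) := by
      have : ((p * m one : ℕ) : ℂ) / (e : ℂ) = (q : ℂ) + s := by
        rw [Nat.cast_mul, hsplit, hq, Nat.cast_mul]
        field_simp
      rw [this]
      exact (isIntegral_algebraMap (x := (q : ℤ))).add hs |> fun h => by simpa using h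
    have hne : e ≠ 0 := by omega
    have hdiv : e ∣ p * m one := dvd_of_isIntegral_div hne hi
    have hcop : Nat.Coprime e p := by
      rw [Nat.coprime_comm, hp.coprime_iff_not_dvd]
      intro hpe
      have := Nat.le_of_dvd (Nat.sub_pos_of_lt hp.one_lt) (show p ∣ p - 1 from hpe.trans ⟨q, hq⟩)
      have := hp.two_le
      omega
    exact hcop.dvd_of_dvd_mul_left hdiv
  -- the bound
  have hbound := sum_normSq_singular P hP hC hχ
  rw [he, Finset.filter_ne'] at hbound
  have hsplit := Finset.add_sum_erase Finset.univ (fun y : P => Complex.normSq (χ y))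
    (Finset.mem_univ (1 : P))
  simp only [OneMemClass.coe_one] at hsplit
  rw [hsq, hd, Complex.normSq_natCast] at hsplit
  rw [hd, Complex.normSq_natCast] at hbound
  have hlow : (m one * m one + (p - 1 - m one) : ℕ) ≤ ∑ ξ, m ξ * m ξ := by
    rw [← Finset.add_sum_erase _ _ (Finset.mem_univ one), ← hdeg,
      ← Finset.add_sum_erase _ _ (Finset.mem_univ one), Nat.add_sub_cancel_left]
    exact Nat.add_le_add_left (Finset.sum_le_sum fun ξ _ => Nat.le_mul_self _) _
  have h0 : m one = 0 := by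
    by_contra hne
    obtain ⟨j, hj⟩ := hdvd
    have hj1 : 1 ≤ j := Nat.one_le_iff_ne_zero.2 fun h => hne (by rw [hj, h, mul_zero])
    have hle : m one ≤ p - 1 := hdeg ▸ Finset.single_le_sum (fun ξ _ => Nat.zero_le _) (Finset.mem_univ one)
    have hlowR : (m one : ℝ) * m one + ((p : ℝ) - 1 - m one) ≤ ∑ ξ, ((m ξ : ℝ) * m ξ) := by
      have h : ((m one * m one + (p - 1 - m one) : ℕ) : ℝ) ≤ ((∑ ξ, m ξ * m ξ : ℕ) : ℝ) :=
        Nat.cast_le.2 hlow
      push_cast [Nat.cast_sub hle, Nat.cast_sub hp.one_le] at h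
      exact h
    have hG0 : (0 : ℝ) < Nat.card G := Nat.cast_pos.2 Nat.card_pos
    have hp1 : ((p - 1 : ℕ) : ℝ) = (p : ℝ) - 1 := by rw [Nat.cast_sub hp.one_le, Nat.cast_one]
    rw [hp1] at hsplit hbound
    have hjR : (1 : ℝ) ≤ j := Nat.one_le_cast.2 hj1
    have heR : (2 : ℝ) ≤ e := by exact_mod_cast he2
    have hm' : (m one : ℝ) = (e : ℝ) * j := by exact_mod_cast hj
    have hpR : (2 : ℝ) ≤ p := by exact_mod_cast hp.two_le
    set SM := ∑ ξ, ((m ξ : ℝ) * m ξ) with hSM
    push_cast at hbound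
    set S := ∑ y ∈ Finset.univ.erase (1 : P), Complex.normSq (χ y) with hS
    have hSlt : S < (p : ℝ) * e := by
      refine lt_of_mul_lt_mul_left (a := (Nat.card G : ℝ)) (hbound.trans_lt ?_) hG0.le
      have : 0 < ((p : ℝ) * e) * (((p : ℝ) - 1) * ((p : ℝ) - 1)) :=
        mul_pos (by positivity) (mul_pos (by linarith) (by linarith))
      nlinarith
    have hSM' := mul_le_mul_of_nonneg_left hlowR (by linarith : (0 : ℝ) ≤ (p : ℝ))
    have hlt : (p : ℝ) * ((m one : ℝ) * ((m one : ℝ) - 1)) < (p : ℝ) * e := by nlinarith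
    have hlt' := lt_of_mul_lt_mul_left hlt (by linarith : (0 : ℝ) ≤ (p : ℝ))
    have hmge : (e : ℝ) ≤ m one := by rw [hm']; exact le_mul_of_one_le_right (by linarith) hjR
    have hmm : (e : ℝ) * 1 ≤ (m one : ℝ) * ((m one : ℝ) - 1) :=
      mul_le_mul hmge (by linarith) zero_le_one (by linarith)
    linarith
  rw [hsum, h0, Nat.cast_zero, mul_zero]

/-- Outside `P`, the normaliser sees a character without trivial constituent on `P` as zero. -/
theorem apply_eq_zero (hC : Subgroup.centralizer (P : Set G) ≤ P) (hP : Nat.card P = p)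
    {χ : G → ℂ} (hχ : IsCharacter G χ) (h0 : ∑ y : P, χ y = 0) {g : G}
    (hg : g ∈ Subgroup.normalizer (P : Set G)) (hgP : g ∉ P) : χ g = 0 := by
  classical
  have hp : p.Prime := Fact.out
  obtain ⟨n, ρ, rfl⟩ := hχ
  -- the averaging operator vanishes
  set A : Module.End ℂ (Fin n → ℂ) := ∑ y : P, ρ (y : G) with hA
  have hmulA : ∀ z : P, ρ (z : G) * A = A := fun z => by
    rw [hA, Finset.mul_sum]
    exact Fintype.sum_equiv (Equiv.mulLeft z) _ _ fun y => by rw [← map_mul]; rfl
  have hAA : A * A = (p : ℂ) • A := by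
    rw [show A * A = (∑ y : P, ρ (y : G)) * A from rfl, Finset.sum_mul,
      Finset.sum_congr rfl fun y _ => hmulA y, Finset.sum_const, Finset.card_univ,
      ← Nat.card_eq_fintype_card, hP, Nat.cast_smul_eq_nsmul]
  have htr : LinearMap.trace ℂ _ A = 0 := by
    rw [hA, map_sum]; exact h0
  have hp0 : (p : ℂ) ≠ 0 := Nat.cast_ne_zero.2 hp.pos.ne'
  have hA0 : A = 0 := by
    set T := (p : ℂ)⁻¹ • A with hT
    have hidem : T * T = T := by
      rw [hT, smul_mul_smul_comm, hAA, smul_smul, mul_assoc, inv_mul_cancel₀ hp0, mul_one]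
    have htrT : LinearMap.trace ℂ _ T = 0 := by rw [hT, map_smul, htr, smul_zero]
    have hrk := ((LinearMap.isProj_range_iff_isIdempotentElem T).2 hidem).trace
    rw [htrT, eq_comm, Nat.cast_eq_zero, Submodule.finrank_eq_zero, LinearMap.range_eq_bot] at hrk
    rwa [hT, smul_eq_zero, or_iff_right (inv_ne_zero hp0)] at hrk
  -- `g` is conjugate to all `g y`
  have hconj : ∀ z : P, ρ.character (g * z) = ρ.character g := by
    let c : P → P := fun y => ⟨g⁻¹ * (y : G) * g * (y : G)⁻¹,
      P.mul_mem ((Subgroup.mem_normalizer_iff''.1 hg _).1 y.2) (P.inv_mem y.2)⟩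
    have hinj : Function.Injective c := by
      intro a b h
      have h' : g⁻¹ * (a : G) * g * (a : G)⁻¹ = g⁻¹ * (b : G) * g * (b : G)⁻¹ := congrArg Subtype.val h
      by_contra hne
      set d : P := b⁻¹ * a with hd
      have hd1 : d ≠ 1 := fun h1 => hne (inv_mul_eq_one.1 h1).symm
      have hcomm : Commute g (d : G) := by
        have h2 : g⁻¹ * ((b : G)⁻¹ * a) * g = (b : G)⁻¹ * a := by
          calc g⁻¹ * ((b : G)⁻¹ * a) * g = (g⁻¹ * (b : G) * g)⁻¹ * (g⁻¹ * (a : G) * g * (a : G)⁻¹) * a := by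
                group
            _ = (g⁻¹ * (b : G) * g)⁻¹ * (g⁻¹ * (b : G) * g * (b : G)⁻¹) * a := by rw [h']
            _ = (b : G)⁻¹ * a := by group
        show g * ((b : G)⁻¹ * a) = (b : G)⁻¹ * a * g
        conv_lhs => rw [← h2]
        group
      refine hgP (hC (Subgroup.mem_centralizer_iff.2 fun z hz => ?_))
      obtain ⟨i, hi⟩ : (⟨z, hz⟩ : P) ∈ Subgroup.zpowers d := mem_zpowers_of_prime_card (p := p) hP hd1
      have : z = (d : G) ^ i := by
        rw [show z = ((⟨z, hz⟩ : P) : G) from rfl, ← hi]; push_cast; rfl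
      rw [this]
      exact ((hcomm.zpow_right i).eq).symm
    intro z
    obtain ⟨y, rfl⟩ := (Finite.injective_iff_surjective.1 hinj) z
    have e : g * (g⁻¹ * (y : G) * g * (y : G)⁻¹) = (y : G) * g * (y : G)⁻¹ := by group
    show ρ.character (g * (g⁻¹ * (y : G) * g * (y : G)⁻¹)) = _
    rw [e, Representation.char_conj]
  have h : (p : ℂ) * ρ.character g = 0 := by
    calc (p : ℂ) * ρ.character g = ∑ z : P, ρ.character (g * z) := by
          rw [Finset.sum_congr rfl fun z _ => hconj z, Finset.sum_const, Finset.card_univ,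
            ← Nat.card_eq_fintype_card, hP, nsmul_eq_mul]
      _ = LinearMap.trace ℂ _ (ρ g * A) := by
          rw [hA, Finset.mul_sum, map_sum]
          exact Finset.sum_congr rfl fun z _ => by rw [Representation.character, map_mul]
      _ = 0 := by rw [hA0, mul_zero, map_zero]
  exact (mul_eq_zero.1 h).resolve_left hp0

omit [Fintype P] in
/-- The determinant of a regular element of two-power order. -/
theorem det_eq_neg_one_pow {n : ℕ} (ρ : Representation ℂ G (Fin n → ℂ)) {c : G} {a m : ℕ}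
    (hc : orderOf c = 2 ^ (a + 1)) (hn : n = 2 ^ (a + 1) * m)
    (h0 : ∀ i : ℕ, ¬ orderOf c ∣ i → ρ.character (c ^ i) = 0) :
    LinearMap.det (ρ c) = (-1) ^ m := by
  classical
  obtain ⟨b, μ, hμ, hb, hchar⟩ := exists_eigenbasis ρ c
  set N := orderOf c with hN
  haveI : NeZero N := ⟨(orderOf_pos c).ne'⟩
  set ζ := Complex.exp (2 * Real.pi * Complex.I / (N : ℕ)) with hζdef
  have hζ : IsPrimitiveRoot ζ N := Complex.isPrimitiveRoot_exp N (orderOf_pos c).ne'
  have hdet : LinearMap.det (ρ c) = ∏ i, μ i := by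
    rw [← LinearMap.det_toMatrix b,
      show LinearMap.toMatrix b b (ρ c) = Matrix.diagonal μ by
        ext i j
        have h := hb j 1
        rw [pow_one, pow_one] at h
        rw [LinearMap.toMatrix_apply, h, map_smul, Finsupp.smul_apply, Module.Basis.repr_self,
          Matrix.diagonal_apply, Finsupp.single_apply]
        by_cases hij : i = j
        · subst hij; simp
        · simp [hij, Ne.symm hij],
      Matrix.det_diagonal]
  choose r hrlt hr using fun i => hζ.eq_pow_of_pow_eq_one (hμ i)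
  have hcount : ∀ j < N, (Finset.univ.filter fun i => r i = j).card = m := by
    intro j hj
    have h1 : ∑ k ∈ Finset.range N, ρ.character (c ^ k) * ((ζ ^ j)⁻¹) ^ k = (n : ℂ) := by
      rw [Finset.sum_eq_single 0]
      · simp [Representation.char_one]
      · intro k hk hk0
        rw [h0 k fun hd => hk0 (Nat.eq_zero_of_dvd_of_lt hd (Finset.mem_range.1 hk)), zero_mul]
      · intro h; exact absurd (Finset.mem_range.2 (orderOf_pos c)) h
    simp only [hchar, Finset.sum_mul, ← mul_pow] at h1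
    rw [Finset.sum_comm] at h1
    have hgeo : ∀ i, ∑ k ∈ Finset.range N, (μ i * (ζ ^ j)⁻¹) ^ k =
        if r i = j then (N : ℂ) else 0 := by
      intro i
      have hζ0 : ζ ^ j ≠ 0 := pow_ne_zero _ (Complex.exp_ne_zero _)
      split_ifs with h
      · rw [← hr i, h, mul_inv_cancel₀ hζ0]
        simp
      · rw [geom_sum_eq, mul_pow, hμ, one_mul, inv_pow, ← pow_mul, mul_comm j, pow_mul,
          hζ.pow_eq_one, one_pow, inv_one, sub_self, zero_div]
        intro h1'
        refine h (hζ.pow_inj (hrlt i) hj ?_)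
        rw [hr i]
        exact (mul_inv_eq_one₀ hζ0).1 h1'
    simp only [hgeo, Finset.sum_ite, Finset.sum_const_zero, add_zero, Finset.sum_const,
      nsmul_eq_mul] at h1
    have h2 : (Finset.univ.filter fun i => r i = j).card * N = n := by exact_mod_cast h1
    have h3 := h2.trans hn
    rw [← hc, mul_comm] at h3
    exact Nat.eq_of_mul_eq_mul_left (orderOf_pos c) h3
  rw [hdet, Finset.prod_congr rfl fun i _ => (hr i).symm, Finset.prod_pow_eq_pow_sum,
    ← Finset.sum_fiberwise_of_maps_to (g := r) (t := Finset.range N)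
      (fun i _ => Finset.mem_range.2 (hrlt i)),
    Finset.sum_congr rfl fun j hj => (show ∑ i ∈ Finset.univ.filter (fun i => r i = j), r i = m * j by
      rw [Finset.sum_congr rfl fun i hi => (Finset.mem_filter.1 hi).2, Finset.sum_const,
        hcount j (Finset.mem_range.1 hj), smul_eq_mul]),
    ← Finset.mul_sum, mul_comm, pow_mul]
  congr 1
  have hsum : ∑ j ∈ Finset.range N, j = 2 ^ a * (N - 1) := by
    have := Finset.sum_range_id_mul_two N
    rw [hc, pow_succ] at this ⊢
    rw [mul_assoc, mul_comm 2, ← mul_assoc] at this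
    exact Nat.eq_of_mul_eq_mul_right Nat.two_pos this
  have hhalf : ζ ^ (2 ^ a) = -1 := by
    have := (hζ.pow (orderOf_pos c) (show N = 2 ^ a * 2 by rw [hc, pow_succ]))
    exact this.eq_neg_one_of_two_right
  rw [hsum, pow_mul, hhalf]
  refine (Odd.neg_one_pow ?_)
  rw [hc, pow_succ]
  exact Nat.Even.sub_odd (Nat.mul_pos (Nat.two_pow_pos a) Nat.two_pos) (even_two.mul_left _) odd_one

end Cfsg.Agent.Lib.CharSelfCentDet
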